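import Mathlib

/-! # Field computations for the groups `G(4,4,3)` and `G₂₄` -/

set_option autoImplicit false

namespace H99.R5.BE

variable {F : Type*} [Field F]

theorem half (h3 : (3 : F) ≠ 0) {c : F} (h : 2 * c = 1) (k : c = 0 ∨ c = 1 ∨ c = 2) : False := by
  rcases k with rfl | rfl | rfl
  · simp at h
  · exact one_ne_zero (α := F) (by linear_combination h)
  · exact h3 (by linear_combination h)

theorem four (h2 : (2 : F) ≠ 0) (h3 : (3 : F) ≠ 0) {c : F} (h : c = 4) (k : c = 0 ∨ c = 1 ∨ c = 2) : False := by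
  rcases k with k | k | k
  · exact mul_ne_zero h2 h2 (by linear_combination k - h)
  · exact h3 (by linear_combination k - h)
  · exact h2 (by linear_combination k - h)

theorem alg (h2 : (2 : F) ≠ 0) (h3 : (3 : F) ≠ 0) {i w v f g : F} (hi : i ^ 2 = -1)
    (c1 : (f - g = 0 ∧ w - v = 0) ∨ (f - g) * (w - v) = 1 ∨ (f - g) * (w - v) = 2)
    (c2 : (f + g = 0 ∧ w + v = 0) ∨ (f + g) * (w + v) = 1 ∨ (f + g) * (w + v) = 2)
    (c3 : (f - i * g = 0 ∧ w + i * v = 0) ∨ (f - i * g) * (w + i * v) = 1 ∨ (f - i * g) * (w + i * v) = 2)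
    (c4 : (f + i * g = 0 ∧ w - i * v = 0) ∨ (f + i * g) * (w - i * v) = 1 ∨ (f + i * g) * (w - i * v) = 2)
    (c5 : (2 - 2 * (w * f + v * g)) ^ 2 = 0 ∨ (2 - 2 * (w * f + v * g)) ^ 2 = 1 ∨ (2 - 2 * (w * f + v * g)) ^ 2 = 2 ∨
      (w = 0 ∧ v = 0)) :
    ((w = 0 ∧ f = 0) ∧ v = 0 ∧ g = 0) ∨ (w * f = 1 ∧ v = 0 ∧ g = 0) ∨ (v * g = 1 ∧ w = 0 ∧ f = 0) ∨
      (2 * (w * f) = 1 ∧ 2 * (v * g) = 1) ∨
      (2 * (w * f + v * g) = 3 ∧ 8 * (w * f * (v * g)) = 1 ∧ 64 * (f * v) ^ 4 = -1) := by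
  have l : (f - g) * (w - v) = 2 → (f + g) * (w + v) = 2 → False := fun c1 c2 => by
    have e : (2 - 2 * (w * f + v * g)) ^ 2 = 4 := by
      rw [show 2 - 2 * (w * f + v * g) = -2 by linear_combination -c1 - c2]; norm_num
    refine four h2 h3 e ?_
    rcases c5 with c | c | c | c
    exacts [Or.inl c, Or.inr (Or.inl c), Or.inr (Or.inr c), (h2 (by rw [← c1, c.1, c.2]; ring)).elim]
  obtain ⟨u, hu⟩ : ∃ u : F, 2 * u = 1 := ⟨2⁻¹, mul_inv_cancel₀ h2⟩
  obtain ⟨t, ht⟩ : ∃ u : F, 3 * u = 1 := ⟨3⁻¹, mul_inv_cancel₀ h3⟩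
  clear h2 h3 c5
  rcases c1 with c1 | c1 | c1 <;> rcases c2 with c2 | c2 | c2
  · left; clear c3 c4 l; grind
  · exfalso; clear c4 l; grind
  · right; right; right; left; clear c3 c4 l; grind
  · exfalso; clear c4 l; grind
  · clear l
    rcases c3 with c3 | c3 | c3 <;> rcases c4 with c4 | c4 | c4
    · exfalso; grind
    · exfalso; grind
    · right; right; right; left; grind
    · exfalso; grind
    · have a' : f * v + g * w = 0 := by linear_combination u * (c2 - c1) - (f * v + g * w) * hu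
      have b' : f * v - g * w = 0 := by
        linear_combination (-u * i) * (c3 - c4) - (f * v - g * w) * hu + 2 * u * (f * v - g * w) * hi
      have a : f * v = 0 := by linear_combination u * (a' + b') - f * v * hu
      have b : g * w = 0 := by linear_combination a' - a
      have c : w * f + v * g = 1 := by linear_combination c2 - a'
      clear c1 c2 c3 c4 a' b'
      rcases mul_eq_zero.1 a with a | a <;> rcases mul_eq_zero.1 b with b | b <;> grind
    · exfalso; grind
    · right; right; right; left; grind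
    · exfalso; grind
    · exfalso; grind
  · clear l
    rcases c3 with c3 | c3 | c3 <;> rcases c4 with c4 | c4 | c4 <;>
      first | (exfalso; grind) | (right; right; right; right; grind)
  · right; right; right; left; clear c3 c4 l; grind
  · clear l
    rcases c3 with c3 | c3 | c3 <;> rcases c4 with c4 | c4 | c4 <;>
      first | (exfalso; grind) | (right; right; right; right; grind)
  · exact (l c1 c2).elim

theorem algT (h2 : (2 : F) ≠ 0) {w0 w1 w2 f0 f1 f2 : F}
    (a : 2 * (w0 * f0 + w1 * f1) = 3 ∧ 8 * (w0 * f0 * (w1 * f1)) = 1 ∧ 64 * (f0 * w1) ^ 4 = -1)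
    (b : 2 * (w1 * f1 + w2 * f2) = 3 ∧ 8 * (w1 * f1 * (w2 * f2)) = 1 ∧ 64 * (f1 * w2) ^ 4 = -1)
    (c : 2 * (w2 * f2 + w0 * f0) = 3 ∧ 8 * (w2 * f2 * (w0 * f0)) = 1 ∧ 64 * (f2 * w0) ^ 4 = -1) : False := by
  have e0 : 4 * (w0 * f0) = 3 := by linear_combination a.1 - b.1 + c.1
  have e1 : 4 * (w1 * f1) = 3 := by linear_combination a.1 + b.1 - c.1
  have e2 : 4 * (w2 * f2) = 3 := by linear_combination -a.1 + b.1 + c.1
  have h7 : (7 : F) = 0 := by linear_combination 2 * a.2.1 - 4 * (w1 * f1) * e0 - 3 * e1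
  have k : (4 * (w0 * f0)) ^ 4 * (4 * (w1 * f1)) ^ 4 * (4 * (w2 * f2)) ^ 4 =
      64 * (64 * (f0 * w1) ^ 4 * (64 * (f1 * w2) ^ 4) * (64 * (f2 * w0) ^ 4)) := by ring
  rw [e0, e1, e2, a.2.2, b.2.2, c.2.2] at k
  exact h2 (by linear_combination k - 75929 * h7)

/-- a pair of type `T` forces the neighbouring pair to be of type `T` -/
theorem algN (h3 : (3 : F) ≠ 0) {p w v f g : F} {T : Prop} (a : 2 * (p + w * f) = 3) (b : 8 * (p * (w * f)) = 1)
    (c : ((w = 0 ∧ f = 0) ∧ v = 0 ∧ g = 0) ∨ (w * f = 1 ∧ v = 0 ∧ g = 0) ∨ (v * g = 1 ∧ w = 0 ∧ f = 0) ∨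
      (2 * (w * f) = 1 ∧ 2 * (v * g) = 1) ∨ T) : T := by
  rcases c with c | c | c | c | c
  · rw [c.1.1] at b; simp at b
  · exact (h3 (by linear_combination b - 4 * (w * f) * a - 4 * (1 - 2 * (w * f)) * c.1)).elim
  · rw [c.2.1] at b; simp at b
  · exact (h3 (by linear_combination b - 4 * (w * f) * a - 4 * (1 - w * f) * c.1)).elim
  · exact c

/-- the invariants of a reflection against a group of type `B₂` -/
theorem algB (h2 : (2 : F) ≠ 0) {w v f g : F} (c1 : f * (2 * w) = 1 ∨ f * (2 * w) = 2)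
    (c2 : g * (2 * v) = 1 ∨ g * (2 * v) = 2) (c3 : (f - g) * (w - v) = 1 ∨ (f - g) * (w - v) = 2)
    (c4 : (f + g) * (w + v) = 1 ∨ (f + g) * (w + v) = 2) :
    (2 * (w * f) = 1 ∧ 2 * (v * g) = 1 ∧ f * v + g * w = 0) ∨ (w * f = 1 ∧ v * g = 1 ∧ f * v + g * w = 0) ∨
      ((w * f = 1 ∧ 2 * (v * g) = 1 ∨ v * g = 1 ∧ 2 * (w * f) = 1) ∧
        (2 * (f * v + g * w) = 1 ∨ 2 * (f * v + g * w) = -1)) := by
  have c : ∀ {s t : F}, 2 * s = 2 * t → s = t := fun e => mul_left_cancel₀ h2 e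
  have one : (1 : F) ≠ 0 := one_ne_zero
  rcases c1 with c1 | c1 <;> rcases c2 with c2 | c2 <;> rcases c3 with c3 | c3 <;> rcases c4 with c4 | c4 <;>
    first
      | exact (one (by linear_combination c1 + c2 - c3 - c4)).elim
      | exact (one (by linear_combination -c1 - c2 + c3 + c4)).elim
      | exact (h2 (by linear_combination c1 + c2 - c3 - c4)).elim
      | exact (h2 (by linear_combination -c1 - c2 + c3 + c4)).elim
      | exact Or.inl ⟨by linear_combination c1, by linear_combination c2, c (by linear_combination c4 - c3)⟩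
      | exact Or.inr (Or.inl ⟨c (by linear_combination c1), c (by linear_combination c2),
          c (by linear_combination c4 - c3)⟩)
      | refine Or.inr (Or.inr ⟨?_, ?_⟩)
        · first
            | exact Or.inl ⟨c (by linear_combination c1), by linear_combination c2⟩
            | exact Or.inr ⟨c (by linear_combination c2), by linear_combination c1⟩
        · first
            | exact Or.inl (by linear_combination c4 - c3)
            | exact Or.inr (by linear_combination c4 - c3)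

end H99.R5.BE
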