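import Mathlib
import Cfsg.Agent.Base
import Cfsg.Agent.Lib.R5.NMa

/-! `L₂(11)` is not maximal in `SL₅(3)`. -/

set_option autoImplicit false
set_option linter.style.haveILetI false
set_option linter.unusedVariables false

namespace H99.R5

open Matrix MatrixGroups Cfsg Cfsg.Geo

namespace NM

open Subgroup

/-- an element of `M₁₁` outside `L₂(11)` -/
def G0 : M := !![0, 1, 2, 0, 0; 0, 1, 0, 0, 0; 0, 0, 0, 2, 0; 1, 2, 0, 0, 0; 0, 2, 0, 0, 1]
/-- a transvection -/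
def T0 : M := !![1, 1, 0, 0, 0; 0, 1, 0, 0, 0; 0, 0, 1, 0, 0; 0, 0, 0, 1, 0; 0, 0, 0, 0, 1]
/-- an element of order eight -/
def K1 : M := !![1, 0, 1, 1, 0; 1, 0, 1, 0, 1; 1, 0, 0, 2, 2; 0, 0, 2, 1, 1; 1, 2, 2, 2, 1]
/-- its fourth power -/
def K4 : M := !![1, 2, 1, 0, 0; 0, 2, 2, 0, 0; 0, 0, 1, 0, 0; 0, 1, 1, 0, 1; 0, 1, 0, 1, 0]

theorem K_pow : K1 ^ 660 ≠ 1 := by
  rw [show 660 = 4 * (2 * 82 + 1) from rfl, pow_mul, show K1 ^ 4 = K4 by decide +kernel, pow_succ, pow_mul,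
    show K4 ^ 2 = 1 by decide +kernel, one_pow, one_mul]
  decide +kernel

theorem cube3 : ∀ d : ZMod 3, d * (d * d) = 1 → d = 1 := by decide +kernel

theorem card_l211 : Nat.card PSL(2, ZMod 11) = 660 := by
  have := H10.card_PSL_two (F := ZMod 11)
  rw [Nat.card_zmod, show Nat.gcd 2 (11 - 1) = 2 by norm_num] at this
  omega

theorem conj5 {Γ : Type*} [Group Γ] (c : Nat.card Γ = 660) {h y : Γ} (h5 : h ^ 5 = 1) (h1 : h ≠ 1)
    (y5 : y ^ 5 = 1) (y1 : y ≠ 1) : ∃ (k : Γ) (n : ℕ), h = k * y ^ n * k⁻¹ := by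
  haveI : Fact (Nat.Prime 5) := ⟨Nat.prime_five⟩
  haveI : Finite Γ := Nat.finite_of_card_ne_zero (by omega)
  have key : ∀ a : Γ, a ^ 5 = 1 → a ≠ 1 → ∃ P : Sylow 5 Γ, (P : Subgroup Γ) = zpowers a := by
    intro a a5 a1
    have o : Nat.card (zpowers a) = 5 := by rw [Nat.card_zpowers, orderOf_eq_prime a5 a1]
    have hp : IsPGroup 5 (zpowers a) := IsPGroup.of_card (n := 1) (by simpa using o)
    refine ⟨hp.toSylow fun hd => ?_, rfl⟩
    have e := (zpowers a).index_mul_card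
    rw [o, c] at e
    omega
  obtain ⟨P, hP⟩ := key y y5 y1
  obtain ⟨Q, hQ⟩ := key h h5 h1
  obtain ⟨k, e⟩ := MulAction.exists_smul_eq Γ P Q
  have m : h ∈ (Q : Subgroup Γ) := hQ ▸ mem_zpowers _
  rw [← e, Sylow.coe_subgroup_smul, hP] at m
  obtain ⟨_, hb, rfl⟩ := (mem_smul_pointwise_iff_exists _ _ _).1 m
  obtain ⟨n, rfl⟩ := mem_powers_iff_mem_zpowers.2 hb
  exact ⟨k, n, rfl⟩

/-- the stabiliser of the twenty-two vectors -/
def stab {Γ : Type*} [Group Γ] (τ : Γ →* M) : Subgroup Γ where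
  carrier := {y | ∀ v, τ y *ᵥ v ∈ X0 ↔ v ∈ X0}
  one_mem' v := by rw [map_one, one_mulVec]
  mul_mem' {a b} ha hb v := by rw [map_mul, ← mulVec_mulVec, ha, hb]
  inv_mem' {a} ha v := by rw [← ha, mulVec_mulVec, ← map_mul, mul_inv_cancel, map_one, one_mulVec]

theorem core' {H P : Subgroup (GL (Fin 5) (ZMod 3))} (hn : ∀ h ∈ H, ∀ x ∈ P, h * x * h⁻¹ ∈ P)
    (c : Nat.card P = 660) {x h w : P} (g : Gen x h w) {T : GL (Fin 5) (ZMod 3)}
    (e1 : cb T x.1.val = Cp 1) (e2 : cb T h.1.val = Hp 4) (e3 : cb T w.1.val = Wm NM.e1) :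
    ¬ IsMaximalIn (specialLinear (Fin 5) (ZMod 3)) H := by
  rintro ⟨hlt, hmax⟩
  let τ : GL (Fin 5) (ZMod 3) →* M := (cb T).comp (Units.coeHom M)
  replace e1 : τ x = Cp 1 := e1
  replace e2 : τ h = Hp 4 := e2
  replace e3 : τ w = Wm NM.e1 := e3
  have inv : ∀ y v, τ y⁻¹ *ᵥ (τ y *ᵥ v) = v := fun y v => by
    rw [mulVec_mulVec, ← map_mul, inv_mul_cancel, map_one, one_mulVec]
  have hP : ∀ y : P, y.1 ∈ stab τ := fun y => by
    have : Subgroup.closure {x, w} ≤ (stab τ).comap P.subtype := by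
      rw [closure_le]
      rintro _ (rfl | rfl) <;> change ∀ v, τ _ *ᵥ v ∈ X0 ↔ v ∈ X0
      · rw [coe_subtype, e1]; exact forall5 (by decide +kernel)
      · rw [coe_subtype, e3]; exact forall5 (by decide +kernel)
    exact this (g.top ▸ mem_top y)
  have ch : ∀ v, v ∈ X0 ↔ v ≠ 0 ∧ ∃ y ∈ P, y ^ 5 = 1 ∧ y ≠ 1 ∧ τ y *ᵥ v = v := fun v => by
    refine ⟨fun hv => ?_, fun ⟨v0, y, hy, y5, y1, e⟩ => ?_⟩
    · obtain ⟨v0, n, u, hu, rfl⟩ := (show ∀ v ∈ X0, v ≠ 0 ∧ ∃ n : Fin 11, ∃ u ∈ [e0, -e0],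
        Cp (n : ℕ) *ᵥ u = v by decide +kernel) v hv
      have fu := (show ∀ u ∈ [e0, -e0], Hp 4 *ᵥ u = u by decide +kernel) u hu
      refine ⟨v0, (x ^ (n : ℕ) * h * (x ^ (n : ℕ))⁻¹ : P), Subtype.prop _, ?_, ?_, ?_⟩
      · rw [← coe_pow, conj_pow, g.h5]; simp
      · exact fun e => g.h1 (by simpa using (Subtype.ext e : x ^ (n : ℕ) * h * (x ^ (n : ℕ))⁻¹ = 1))
      · rw [← C_pow, ← e1, ← map_pow, coe_mul, coe_mul, coe_inv, coe_pow, map_mul, map_mul,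
          ← mulVec_mulVec, inv, ← mulVec_mulVec, e2, fu]
    · obtain ⟨k, n, hk⟩ := conj5 c g.h5 g.h1 (y := ⟨y, hy⟩) (Subtype.ext y5)
        fun e => y1 (congrArg Subtype.val e)
      have f : ∀ n : ℕ, τ (y ^ n) *ᵥ v = v := fun n => by
        induction n with
        | zero => simp
        | succ n ih => rw [pow_succ, map_mul, ← mulVec_mulVec, e, ih]
      have f2 : Hp 4 *ᵥ (τ k *ᵥ v) = τ k *ᵥ v := by
        rw [← e2, hk, coe_mul, coe_mul, coe_inv, coe_pow, map_mul, map_mul, ← mulVec_mulVec, inv,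
          ← mulVec_mulVec, f]
      rcases forall5 (p := fun v => Hp 4 *ᵥ v = v → v = 0 ∨ v ∈ X0) (by decide +kernel) _ f2 with e0 | e0
      · exact absurd (by rw [← inv k v, e0, mulVec_zero]) v0
      · exact (hP k v).1 e0
  have hH : ∀ a ∈ H, ∀ v ∈ X0, τ a *ᵥ v ∈ X0 := fun a ha v hv => by
    obtain ⟨v0, y, hy, y5, y1, e⟩ := (ch v).1 hv
    refine (ch _).2 ⟨fun e0 => v0 (by rw [← inv a v, e0, mulVec_zero]), _, hn a ha y hy, ?_, ?_, ?_⟩
    · rw [conj_pow, y5]; simp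
    · exact fun e => y1 (by simpa using e)
    · rw [map_mul, map_mul, ← mulVec_mulVec, inv, ← mulVec_mulVec, e]
  have lift : ∀ A : M, A * (A * A) = 1 → ∃ y ∈ specialLinear (Fin 5) (ZMod 3), τ y = A ∧ y⁻¹ = y * y := by
    intro A hA
    let U : GL (Fin 5) (ZMod 3) := ⟨A, A * A, hA, by rw [mul_assoc, hA]⟩
    have u3 : T * U * T⁻¹ * (T * U * T⁻¹ * (T * U * T⁻¹)) = 1 := by
      rw [conj_mul, conj_mul, show U * (U * U) = 1 from Units.ext hA]; simp
    refine ⟨T * U * T⁻¹, ?_, ?_, inv_eq_of_mul_eq_one_right u3⟩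
    · have := congrArg (fun g => (GeneralLinearGroup.det g).val) u3
      generalize T * U * T⁻¹ = y at this
      simp only [map_mul, map_one, Units.val_mul, Units.val_one] at this
      exact MonoidHom.mem_ker.2 (Units.val_eq_one.1 (cube3 _ this))
    · change (T⁻¹).val * (T * U * T⁻¹).val * T.val = U.val
      rw [← Units.val_mul, ← Units.val_mul]
      exact congrArg Units.val (by group)
  rcases hmax (specialLinear (Fin 5) (ZMod 3) ⊓ stab τ) (fun a ha => ⟨hlt.le ha, fun v =>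
    ⟨fun hv => inv a v ▸ hH _ (inv_mem ha) _ hv, hH a ha v⟩⟩) inf_le_left with e | e
  · obtain ⟨y, y1, y2, y3⟩ := lift G0 (by decide +kernel)
    have m : y ∈ H := e ▸ ⟨y1, by
      change ∀ v, τ y *ᵥ v ∈ X0 ↔ v ∈ X0
      rw [y2]; exact forall5 (by decide +kernel)⟩
    have k := congrArg (fun a : P => τ a) (pow_card_eq_one' (x := ⟨_, mul_mem (hn y m x x.2) x.2⟩))
    simp only [c, coe_pow, map_pow, map_mul, y3, y2, e1, coe_one, map_one] at k
    exact K_pow ((congrArg (· ^ 660) (by decide +kernel)).trans k)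
  · obtain ⟨y, y1, y2, -⟩ := lift T0 (by decide +kernel)
    have := (e.ge y1).2 NM.e1
    rw [y2] at this
    revert this; decide +kernel

theorem core {H P : Subgroup (GL (Fin 5) (ZMod 3))} (hn : ∀ h ∈ H, ∀ x ∈ P, h * x * h⁻¹ ∈ P)
    (e : P ≃* PSL(2, ZMod 11)) : ¬ IsMaximalIn (specialLinear (Fin 5) (ZMod 3)) H := by
  obtain ⟨x, h, w, g⟩ := exists_gen
  replace g := g.map e.symm
  have c : Nat.card P = 660 := (Nat.card_congr e.toEquiv).trans card_l211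
  let ρ : P →* M := (Units.coeHom M).comp P.subtype
  obtain ⟨u, u0, h1 | h1⟩ := g.root ρ fun a b e => Subtype.ext (Units.ext e)
  · obtain ⟨T, e1, e2, e3⟩ := g.form ρ h1 u0
    exact core' hn c g e1 e2 e3
  · obtain ⟨T, e1, e2, e3⟩ := g.inv.form ρ h1 u0
    exact core' hn c g.inv e1 e2 e3

end NM

theorem l211_not_max {F : Type*} [Field F] [Fintype F] (hF : Fintype.card F = 3) {H P : Subgroup (GL (Fin 5) F)}
    (h : IsResidualCore H P) (e : P ≃* PSL(2, ZMod 11)) (hr : ¬ ∀ g ∈ P, (g⁻¹).val.trace = g.val.trace) :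
    ¬ IsMaximalIn (specialLinear (Fin 5) F) H := by
  rintro ⟨hlt, hmax⟩
  let f : F ≃+* ZMod 3 := (ZMod.ringEquivOfPrime F Nat.prime_three hF).symm
  let θ : GL (Fin 5) F ≃* GL (Fin 5) (ZMod 3) := Units.mapEquiv f.mapMatrix.toMulEquiv
  have hS : ∀ g, θ g ∈ specialLinear (Fin 5) (ZMod 3) ↔ g ∈ specialLinear (Fin 5) F := fun g => by
    simp only [specialLinear, MonoidHom.mem_ker, Units.ext_iff, GeneralLinearGroup.val_det_apply, Units.val_one]
    change (f.mapMatrix g.val).det = 1 ↔ _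
    rw [← RingEquiv.map_det, f.map_eq_one_iff]
  have eS : (specialLinear (Fin 5) F).map θ.toMonoidHom = specialLinear (Fin 5) (ZMod 3) := by
    ext g
    rw [Subgroup.mem_map_equiv, ← hS, θ.apply_symm_apply]
  refine NM.core (H := H.map θ.toMonoidHom) (P := P.map θ.toMonoidHom) ?_ ((θ.subgroupMap P).symm.trans e)
    ⟨eS ▸ (Subgroup.map_lt_map_iff_of_injective θ.injective).2 hlt, fun N h1 h2 => ?_⟩
  · rintro _ ⟨a, ha, rfl⟩ _ ⟨b, hb, rfl⟩
    exact ⟨_, h.normal a ha b hb, by simp⟩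
  · have k : (N.comap θ.toMonoidHom).map θ.toMonoidHom = N := Subgroup.map_comap_eq_self_of_surjective θ.surjective N
    rcases hmax (N.comap θ.toMonoidHom) (Subgroup.map_le_iff_le_comap.1 h1) fun g hg => (hS g).1 (h2 hg) with e | e
    · exact Or.inl (by rw [← k, e])
    · exact Or.inr (by rw [← k, e, eS])

end H99.R5
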