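import Mathlib

/-! Rank one idempotents in commutative algebras of 3 × 3 matrices. -/

set_option autoImplicit false

namespace H99.R5.TM

open Matrix Polynomial

variable {F : Type*} [Field F]

section alg
variable {R : Type*} [Ring R] [Algebra F R] {x g Z : R} {α : F}

theorem aeval_mul (h : x * g = α • g) (q : F[X]) : aeval x q * g = q.eval α • g := by
  induction q using Polynomial.induction_on with
  | C a => rw [aeval_C, eval_C, Algebra.smul_def]
  | add p q hp hq => rw [map_add, add_mul, hp, hq, eval_add, add_smul]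
  | monomial n a ih =>
    rw [pow_succ, ← mul_assoc, map_mul, aeval_X, mul_assoc, h, mul_smul_comm, ih, smul_smul, eval_mul (q := X),
      eval_X, mul_comm]

theorem comm_aeval (h : Commute Z x) (q : F[X]) : Commute Z (aeval x q) := by
  induction q using Polynomial.induction_on with
  | C a => rw [aeval_C]; exact (Algebra.commutes a Z).symm
  | add p q hp hq => rw [map_add]; exact hp.add_right hq
  | monomial n a ih => rw [pow_succ, ← mul_assoc, map_mul, aeval_X]; exact ih.mul_right h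

theorem exists_idem [Nontrivial R] (s : Finset F) (h : aeval x (∏ α ∈ s, (X - C α)) = 0) :
    ∃ (α : F) (E : R), E ≠ 0 ∧ E * E = E ∧ x * E = α • E ∧ ∀ Z, Commute Z x → Commute Z E := by
  classical
  induction s using Finset.induction_on with
  | empty => simp at h
  | insert α t hα ih =>
    by_cases h0 : aeval x (∏ β ∈ t, (X - C β)) = 0
    · exact ih h0
    rw [Finset.prod_insert hα, map_mul, map_sub, aeval_X, aeval_C, sub_mul, sub_eq_zero,
      ← Algebra.smul_def] at h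
    have hc : (∏ β ∈ t, (X - C β)).eval α ≠ 0 := by
      rw [eval_prod]
      exact Finset.prod_ne_zero_iff.2 fun β hβ => by
        rw [eval_sub, eval_X, eval_C, sub_ne_zero]
        rintro rfl
        exact hα hβ
    refine ⟨α, ((∏ β ∈ t, (X - C β)).eval α)⁻¹ • aeval x (∏ β ∈ t, (X - C β)),
      smul_ne_zero (inv_ne_zero hc) h0, ?_, by rw [mul_smul_comm, h, smul_comm],
      fun Z hZ => (comm_aeval hZ _).smul_right _⟩
    rw [smul_mul_assoc, mul_smul_comm, aeval_mul h, smul_smul, smul_smul, mul_assoc, inv_mul_cancel₀ hc,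
      mul_one]

end alg

abbrev M3 (F : Type*) := Matrix (Fin 3) (Fin 3) F

theorem rank_one {E : M3 F} (h0 : E ≠ 0) (hE : E * E = E) (h : E.rank ≤ 1) :
    ∃ w ψ : Fin 3 → F, ψ ⬝ᵥ w = 1 ∧ E = vecMulVec w ψ := by
  obtain ⟨v, hv⟩ := finrank_le_one_iff.1 h
  choose c hc using fun k : Fin 3 => hv ⟨E *ᵥ Pi.single k 1, _, rfl⟩
  have e : E = vecMulVec v.1 c := by
    ext i k
    have := congrFun (congrArg Subtype.val (hc k)) i
    simp only [SetLike.val_smul, Pi.smul_apply, smul_eq_mul, mulVec_single, MulOpposite.op_one, one_smul,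
      col_apply] at this
    rw [vecMulVec_apply, ← this, mul_comm]
  refine ⟨v.1, c, ?_, e⟩
  by_contra h1
  rw [e, vecMulVec_mul_vecMulVec] at hE
  have h2 : (c ⬝ᵥ v.1 - 1) • vecMulVec v.1 c = 0 := by
    rw [sub_smul, one_smul, sub_eq_zero, ← vecMulVec_smul]
    exact hE
  exact h0 (e.trans ((smul_eq_zero.1 h2).resolve_left (sub_ne_zero.2 h1)))

theorem exists_rank_one {x : M3 F} {n : ℕ} (hn : 0 < n) {ζ : F} (hζ : IsPrimitiveRoot ζ n) (hx : x ^ n = 1)
    (hs : ∀ c : F, x ≠ c • 1) :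
    ∃ w ψ : Fin 3 → F, ψ ⬝ᵥ w = 1 ∧ ∀ Z, Commute Z x → Commute Z (vecMulVec w ψ) := by
  obtain ⟨α, E, h0, hE, h1, h2⟩ := exists_idem (x := x) (nthRootsFinset n (1 : F))
    (by rw [← X_pow_sub_one_eq_prod hn hζ, map_sub, map_pow, aeval_X, hx, map_one, sub_self])
  have h3 : 1 - E ≠ 0 := fun e => hs α (by rwa [← sub_eq_zero.1 e, mul_one] at h1)
  have h4 := rank_add_rank_le_card_of_mul_eq_zero (A := E) (B := 1 - E) (by rw [mul_sub, hE, mul_one, sub_self])
  rw [Fintype.card_fin] at h4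
  by_cases h5 : E.rank ≤ 1
  · obtain ⟨w, ψ, a, b⟩ := rank_one h0 hE h5
    exact ⟨w, ψ, a, b ▸ h2⟩
  · obtain ⟨w, ψ, a, b⟩ := rank_one h3 (by rw [mul_sub, mul_one, sub_mul, one_mul, hE, sub_self, sub_zero])
      (by omega)
    exact ⟨w, ψ, a, fun Z hZ => b ▸ (Commute.one_right Z).sub_right (h2 Z hZ)⟩

theorem par_of_comm {w ψ w' ψ' : Fin 3 → F} (h' : ψ' ⬝ᵥ w' = 1) (hc : Commute (vecMulVec w ψ) (vecMulVec w' ψ'))
    (h0 : ψ ⬝ᵥ w' ≠ 0) : w = (ψ' ⬝ᵥ w) • w' := by
  have := congrArg (· *ᵥ w') hc.eq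
  simp only [← mulVec_mulVec, vecMulVec_mulVec, op_smul_eq_smul, h', one_smul, dotProduct_smul, smul_eq_mul] at this
  refine smul_right_injective _ h0 ?_
  simp only [this, smul_smul]

theorem par_of_comm' {w ψ w' ψ' : Fin 3 → F} (h : ψ ⬝ᵥ w = 1) (hc : Commute (vecMulVec w ψ) (vecMulVec w' ψ'))
    (h0 : ψ ⬝ᵥ w' ≠ 0) : ψ' = (ψ' ⬝ᵥ w) • ψ := by
  have := congrArg (ψ ᵥ* ·) hc.eq
  simp only [← vecMul_vecMul, vecMul_vecMulVec, h, one_smul, smul_dotProduct, smul_eq_mul] at this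
  refine smul_right_injective _ h0 ?_
  simp only [this, smul_smul]

/-- a family of commuting rank one idempotents whose images span the space contains a frame -/
theorem exists_frame (I : (Fin 3 → F) → (Fin 3 → F) → Prop) (h1 : ∀ w ψ, I w ψ → ψ ⬝ᵥ w = 1)
    (hc : ∀ w ψ w' ψ', I w ψ → I w' ψ' → Commute (vecMulVec w ψ) (vecMulVec w' ψ'))
    (ht : Submodule.span F {w | ∃ ψ, I w ψ} = ⊤) :
    ∃ f y : Fin 3 → Fin 3 → F, (∀ i j, y i ⬝ᵥ f j = if i = j then 1 else 0) ∧ ∀ i, I (f i) (y i) := by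
  obtain ⟨b, hb, hs, hl⟩ := exists_linearIndependent F {w | ∃ ψ, I w ψ}
  rw [ht] at hs
  let B := Module.Basis.mk hl (by rw [Subtype.range_coe]; exact hs.ge)
  haveI : Finite b := Module.Finite.finite_basis B
  haveI := Fintype.ofFinite b
  have hcard : Fintype.card b = 3 := by
    rw [← Module.finrank_eq_card_basis B]; simp
  let e := Fintype.equivFinOfCardEq hcard
  choose ψ hψ using fun i : Fin 3 => hb (e.symm i).2
  refine ⟨fun i => (e.symm i).1, ψ, fun i j => ?_, hψ⟩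
  split_ifs with hij
  · subst hij; exact h1 _ _ (hψ i)
  by_contra h0
  have h2 := par_of_comm (h1 _ _ (hψ j)) (hc _ _ _ _ (hψ i) (hψ j)) h0
  exact hij (e.symm.injective (hl.eq_of_smul_apply_eq_smul_apply 1 (ψ j ⬝ᵥ (e.symm i).1) _ _ one_ne_zero
    (by rw [one_smul]; exact h2)))

theorem du_sum {f y : Fin 3 → Fin 3 → F} (h : ∀ i j, y i ⬝ᵥ f j = if i = j then 1 else 0) (a φ : Fin 3 → F) :
    a = ∑ i, (y i ⬝ᵥ a) • f i ∧ φ = ∑ i, (φ ⬝ᵥ f i) • y i := by
  have h1 : Matrix.of y * (Matrix.of f)ᵀ = 1 := by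
    ext i j
    rw [one_apply, ← h]
    rfl
  have h2 := mul_eq_one_comm.1 h1
  constructor
  · conv_lhs => rw [← one_mulVec a, ← h2, ← mulVec_mulVec]
    ext k
    simp [mulVec, dotProduct, mul_comm]
  · conv_lhs => rw [← vecMul_one φ, ← h2, ← vecMul_vecMul]
    ext k
    simp [vecMul, dotProduct, mul_comm]

theorem arith {α β : Fin 3 → F} (h2 : (2 : F) ≠ 0) (hs : ∑ i, α i * β i = 2)
    (hc : ∀ i k l : Fin 3, k ≠ l → ((if k = i then 1 else 0) - α k * β i) * ((if l = i then 1 else 0) - α l * β i) = 0)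
    (hr : ∀ i k l : Fin 3, k ≠ l → ((if k = i then 1 else 0) - α i * β k) * ((if l = i then 1 else 0) - α i * β l) = 0) :
    (∃ i, α i * β i = 2 ∧ ∀ k, k ≠ i → α k = 0 ∧ β k = 0) ∨
      ∃ i j, i ≠ j ∧ α i * β i = 1 ∧ α j * β j = 1 ∧ ∀ k, k ≠ i → k ≠ j → α k = 0 ∧ β k = 0 := by
  obtain ⟨i, -, hi⟩ := Finset.exists_ne_zero_of_sum_ne_zero (hs.trans_ne h2)
  have ha := left_ne_zero_of_mul hi
  have hb := right_ne_zero_of_mul hi
  rw [← Finset.add_sum_erase _ _ (Finset.mem_univ i)] at hs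
  by_cases h1 : α i * β i = 1
  · have h3 : ∑ k ∈ Finset.univ.erase i, α k * β k = 1 := by linear_combination hs - h1
    obtain ⟨j, hj, hj'⟩ := Finset.exists_ne_zero_of_sum_ne_zero (h3.trans_ne one_ne_zero)
    have hji := Finset.ne_of_mem_erase hj
    have key : ∀ k, k ≠ i → k ≠ j → α k = 0 ∧ β k = 0 := fun k hi' hj'' => by
      have c1 := hc i k j hj''
      have c2 := hr i k j hj''
      rw [if_neg hi', if_neg hji] at c1 c2
      have ha' := left_ne_zero_of_mul hj'
      have hb' := right_ne_zero_of_mul hj'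
      constructor
      · simpa [ha', hb] using c1
      · simpa [ha, hb'] using c2
    refine .inr ⟨i, j, hji.symm, h1, ?_, key⟩
    rw [← h3, ← Finset.add_sum_erase _ _ hj, Finset.sum_eq_zero, add_zero]
    intro k hk
    rw [(key k (Finset.ne_of_mem_erase (Finset.mem_of_mem_erase hk)) (Finset.ne_of_mem_erase hk)).1, zero_mul]
  · have key : ∀ k, k ≠ i → α k = 0 ∧ β k = 0 := fun k hk => by
      have c1 := hc i i k hk.symm
      have c2 := hr i i k hk.symm
      rw [if_pos rfl, if_neg hk] at c1 c2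
      have h4 : 1 - α i * β i ≠ 0 := sub_ne_zero.2 (Ne.symm h1)
      constructor
      · simpa [h4, hb] using c1
      · simpa [h4, ha] using c2
    refine .inl ⟨i, ?_, key⟩
    rw [← hs, Finset.sum_eq_zero, add_zero]
    intro k hk
    rw [(key k (Finset.ne_of_mem_erase hk)).1, zero_mul]

end H99.R5.TM
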